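import Cfsg.Agent.H7.Mult3
import Cfsg.Agent.H7.Mx6
import Cfsg.Agent.H7.Li.S44
import Cfsg.Agent.H7.Ou.He

set_option autoImplicit false
set_option maxRecDepth 100000

universe u

open scoped Pointwise

namespace CfsgH7.He.Is

open CfsgH7.He CfsgH7.He.Ou

def V : List (List Nat) := [[12,6,4,6,12,4,6,4,6,10,0,2,4,6,4,2,0,12,6,4,6,4,8,10],[10,6,4,6,8,4,6,2,4,6,2,4,2,6,4,8,6,4,2,6,4,6,4,2],[2,4,6,4,6,8,2,4,6,4,2,6,4,6,4,2,8,6,4,6,4,8,6]]
theorem Vs_0 : lall (fun w => fixesP l w bs) ((S44.Rf.take 12).map (substW V)) = true := by decide +kernel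
theorem Vs_1 : lall (fun w => fixesP l w bs) ((S44.Rf.drop 12).map (substW V)) = true := by decide +kernel
theorem Vs : lall (fun w => fixesP l w bs) (S44.Rf.map (substW V)) = true :=
  (lall_split 12 Vs_0 Vs_1)
theorem V_m : Mdl (genW g V) 3 S44.Rf 979200 :=
  M0.genMdl (V := V) S44.pr S44.mdl0 S44.simple Vs 1 (by decide +kernel)
theorem V_le : genW g V ≤ genW g W1 := M0.le [[13,8,4,2,4,0,6],[8,12],[12,6]] (by decide +kernel)

end CfsgH7.He.Is

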