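import Cfsg.Agent.H7.Mult3
import Cfsg.Agent.H7.Mx6
import Cfsg.Agent.H7.Li.L37
import Cfsg.Agent.H7.Ou.ONA

set_option autoImplicit false
set_option maxRecDepth 100000

universe u

open scoped Pointwise

namespace CfsgH7.ON.Is

open CfsgH7.ON CfsgH7.ON.Ou

def V : List (List Nat) := [[10,4,6,8,6,4,8,10,8,6,4,8,6,10,8,6],[6,8,10,6,8,4,6,8,10,4,6,8,2,12,10,6,8,6,4,6,8,6,4,10],[12,10,6,8,4,6,8,10,4,6,8,4,6,8,10,8,2,4,6,8,4,2,10,4,6,8,6,4,12,6,8,6,10,12],[10,12,8,6,8,10,8,6,8,4,6,8,10,6,8,12,4,6,8,6,10,12,4,6,8,6,10,4,6,8,6,10]]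
theorem Vs_0 : lall (fun w => fixesP l w bs) ((L37.Rf.take 14).map (substW V)) = true := by decide +kernel
theorem Vs_1 : lall (fun w => fixesP l w bs) ((L37.Rf.drop 14).map (substW V)) = true := by decide +kernel
theorem Vs : lall (fun w => fixesP l w bs) (L37.Rf.map (substW V)) = true :=
  (lall_split 14 Vs_0 Vs_1)
theorem V_m : Mdl (genW g V) 4 L37.Rf 1876896 :=
  M0.genMdl (V := V) L37.pr L37.mdl0 L37.simple Vs 1 (by decide +kernel)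
theorem V_le : genW g V ≤ genW g W1 := M0.le [[8,2,4,6,4,2,6,8,6,4,2,6,4,8,6,4],[4,6,8,4,6,2,4,6,8,2,4,6,0,10,8,4,6,4,2,4,6,4,2,8],[10,8,4,6,2,4,6,8,2,4,6,2,4,6,8,6,0,2,4,6,2,0,8,2,4,6,4,2,10,4,6,4,8,10],[8,10,6,4,6,8,6,4,6,2,4,6,8,4,6,10,2,4,6,4,8,10,2,4,6,4,8,2,4,6,4,8]] (by decide +kernel)

end CfsgH7.ON.Is

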