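import Cfsg.Agent.H7.Mult3
import Cfsg.Agent.H7.Mx6
import Cfsg.Agent.H7.Mu.M11
import Cfsg.Agent.H7.Mu.J1
import Cfsg.Agent.H7.Ou.ONA

set_option autoImplicit false
set_option maxRecDepth 100000

universe u

open scoped Pointwise

namespace CfsgH7.M11

theorem simple : IsSimpleGroup G0 :=
  M0.simple ⟨0, [0,1,0,0,0], 11⟩ 4 [[0,0,4],[1,1,2]] [⟨10, [0], [0,1,0,0,0,0], [0,0,0,0,0,0,0,0,0,0]⟩] 720 (by decide +kernel) (by decide +kernel)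
    [0] 11 [[],[4]] [⟨0, [[0]], [0,0,0,0,0,0,0,0,0,0], 11⟩,
  ⟨1, [[0,0,0,3],[0,0,2,2],[0,0,3,0]], [0,1,0,0,2,2], 10⟩,
  ⟨2, [[0,2,1,3,3],[2,0,2,1,2]], [0,0,1,0,1], 9⟩,
  ⟨3, [[0,0,0,3,0,2,2,0],[0,0,2,2,1,1,1,2],[0,2,2,1,3,3,3,3]], [0,1,2], 8⟩] (by decide +kernel)

end CfsgH7.M11

namespace CfsgH7.ON.Is

open CfsgH7.ON CfsgH7.ON.Ou

theorem MP : Md (finPt 122760) 122760 (pgen 122760 l) l 7 460815505920 bs := M0.toPG.1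
def A : List (List Nat) := [[0,10,4,0,8,10,4,6,1,8,6,4,0,8,4,6,8,6,4,10,8,6,8,6,10,8,6,8],[6,4,1,8,4,6,8,10,4,6,8,6,2,4,0,6,8,6,10,8,2,4,6,10,8,4,6,10,8,4,6,10,8,6,10,8,4,6,8,10,8,6,8,6,4,2,8],[10,6,8,0,10,4,6,8,6,1,10,2,4,0,12,10,8,4,6,8,2,4,6,10,8,6,10,8,2,4,6,10,8,12,10,2,4,2,6,8,6,4,8,6,8,6]]
theorem As_0 : lall (fun w => fixesP l w bs) ((J1m.Rf.take 7).map (substW A)) = true := by decide +kernel
theorem As_1 : lall (fun w => fixesP l w bs) ((J1m.Rf.drop 7).map (substW A)) = true := by decide +kernel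
theorem As : lall (fun w => fixesP l w bs) (J1m.Rf.map (substW A)) = true :=
  (lall_split 7 As_0 As_1)
theorem A_m : Mdl (genW (pgen 122760 l) A) 3 J1m.Rf 175560 :=
  MP.genMdl (V := A) J1m.pr J1m.mdl0 J1m.simple As 0 (by decide +kernel)
def B : List (List Nat) := [[8,0,10,8,6,8,1,10,1,8,4,6,0,4,0,8,6,8,6,10,8,4,6,12,10,8,4,6,10,8,4,6,10,8,12,10,4,8,6,8,6,4],[0,6,8,0,10,8,6,0,4,0,8,4,6,10,8,6,8,4,6,10,8,6,12,10,8,4,6,10,8,2,4,6,10,8,12,10,6,4,8,6,4,8,6,4,2],[1,8,10,8,6,8,1,10,0,2,6,10,8,6,8,6,8,10,8,6]]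
theorem Bs_0 : lall (fun w => fixesP l w bs) (M11.Rf.map (substW B)) = true := by decide +kernel
theorem Bs : lall (fun w => fixesP l w bs) (M11.Rf.map (substW B)) = true :=
  Bs_0
theorem B_m : Mdl (genW (pgen 122760 l) B) 3 M11.Rf 7920 :=
  MP.genMdl (V := B) M11.pr M11.mdl0 M11.simple Bs 0 (by decide +kernel)

end CfsgH7.ON.Is

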