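import Cfsg.Agent.H7.Mult3
import Cfsg.Agent.H7.Mx6
import Cfsg.Agent.H7.Li.G24x
import Cfsg.Agent.H7.Ou.Suz

set_option autoImplicit false
set_option maxRecDepth 100000

universe u

open scoped Pointwise

namespace CfsgH7.Suz.Is

open CfsgH7.Suz CfsgH7.Suz.Ou

def V : List (List Nat) := [[8,4,0,6,0,4,2,0,4,6,2],[4,6,8,6,4,6,4,8,6],[8],[10,2,4,2,0,2,6,4,2,6,4,10,2,4,6,4,2,0]]
theorem Vs_0 : lall (fun w => fixesP l w bs) (G24.Rf.map (substW V)) = true := by decide +kernel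
theorem Vs : lall (fun w => fixesP l w bs) (G24.Rf.map (substW V)) = true :=
  Vs_0
theorem V_m : Mdl (genW g V) 4 G24.Rf 251596800 :=
  M0.genMdl (V := V) G24.pr G24.mdl0 G24.simple Vs 1 (by decide +kernel)
theorem V_le : genW g V ≤ genW g W1 := M0.le [[8,4,6,4,2,4,0,2,6],[4,6,8,4,6,4,0,8,6,8],[8],[10,2,4,2,0,2,6,4,2,6,4,10,2,4,6,4,2,0]] (by decide +kernel)
theorem mdl : Mdl (genW g W1) 4 G24.Rf 251596800 :=
  have := M0.fin; V_m.of_le V_le (by rw [show genW g W1 = _ from K_eq]; exact card_stab)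

end CfsgH7.Suz.Is

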